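import Cfsg.Agent.BLK.GCount

set_option autoImplicit false

namespace CL.ND

open Cfsg

universe u

/-- Glauberman count for two commuting coprime automorphisms. -/
theorem fix (p : ℕ) [Fact p.Prime] {D E : Type u} [Group D] [Finite D] [Group E] [Finite E]
    (hD : IsPGroup p D) (hE : ¬ p ∣ Nat.card E) (φ : E →* MulAut D) (e₁ e₂ : E)
    (h : e₁ * e₂ = e₂ * e₁) :
    Nat.card {ζ : IrrCharacter D // (∀ d, ζ.1 (φ e₁ d) = ζ.1 d) ∧ ∀ d, ζ.1 (φ e₂ d) = ζ.1 d} ≤
      Nat.card {d : D // φ e₁ d = d ∧ φ e₂ d = d} := by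
  classical
  have hfin : Finite (D ⋊[φ] E) := Finite.of_equiv _ SemidirectProduct.equivProd.symm
  let G : Subgroup (D ⋊[φ] E) := (SemidirectProduct.inl : D →* D ⋊[φ] E).range
  let A : Subgroup E := Subgroup.closure {e₁, e₂}
  let S : Subgroup (D ⋊[φ] E) := A.map SemidirectProduct.inr
  let e : D ≃* G := MonoidHom.ofInjective SemidirectProduct.inl_injective
  let f : A ≃* S := A.equivMapOfInjective _ SemidirectProduct.inr_injective
  have hA : IsMulCommutative A := Subgroup.isMulCommutative_closure (by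
    rintro x (rfl | rfl) y (rfl | rfl)
    exacts [rfl, h, h.symm, rfl])
  have hS : IsMulCommutative S := Subgroup.map_isMulCommutative _ _
  have hsolv : Group.IsSolvable S := Group.isSolvable_of_comm fun a b => hS.is_comm.comm a b
  have hGn : G.Normal := by
    rw [show G = _ from SemidirectProduct.range_inl_eq_ker_rightHom]
    infer_instance
  have hcop : (Nat.card G).Coprime (Nat.card S) := by
    rw [← Nat.card_congr e.toEquiv, ← Nat.card_congr f.toEquiv]
    obtain ⟨k, hk⟩ := IsPGroup.iff_card.mp hD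
    rw [hk]
    exact Nat.Coprime.pow_left _ ((Nat.Prime.coprime_iff_not_dvd Fact.out).mpr
      fun hd => hE (hd.trans A.card_subgroup_dvd_card))
  have key := CL.Glb.card_IS_eq hsolv G Subgroup.le_normalizer_of_normal hcop
  have hinv : ∀ ζ : D → ℂ, (∀ d, ζ (φ e₁ d) = ζ d) → (∀ d, ζ (φ e₂ d) = ζ d) →
      ∀ a ∈ A, ∀ d, ζ (φ a d) = ζ d := fun ζ h1 h2 a ha => by
    induction ha using Subgroup.closure_induction with
    | mem x hx => rcases hx with rfl | rfl <;> assumption
    | one => simp
    | mul x y _ _ hx hy => intro d; rw [map_mul, MulAut.mul_apply, hx, hy]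
    | inv x _ hx => intro d; rw [← hx, ← MulAut.mul_apply, ← map_mul, mul_inv_cancel, map_one, MulAut.one_apply]
  have he : ∀ d, ((e d : G) : D ⋊[φ] E) = SemidirectProduct.inl d := fun _ => rfl
  have hI : Finite (IrrCharacter G) := inferInstance
  calc _ ≤ Nat.card {χ : IrrCharacter G // CL.Glb.IS S G χ.1} := by
        refine Nat.card_le_card_of_injective
          (fun ζ => ⟨⟨fun g => ζ.1.1 (e.symm g), ζ.1.2.comp_mulEquiv e.symm⟩, ?_⟩) ?_
        · rintro _ ⟨a, ha, rfl⟩ g g' hg
          obtain ⟨d, rfl⟩ := e.surjective g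
          have : g' = e (φ a d) := Subtype.ext (by
            rw [hg, he, he, SemidirectProduct.inl_aut, map_inv])
          subst this
          simp only [MulEquiv.symm_apply_apply]
          exact hinv _ ζ.2.1 ζ.2.2 a ha d
        · intro ζ ζ' hz
          refine Subtype.ext (Subtype.ext (funext fun d => ?_))
          have := congrFun (congrArg (fun x => x.1.1) hz) (e d)
          simpa only [MulEquiv.symm_apply_apply] using this
    _ ≤ Nat.card (G ⊓ Subgroup.centralizer (S : Set (D ⋊[φ] E)) : Subgroup _) := by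
        rw [key, CL.Char.card_irr]
        exact Nat.card_le_card_of_surjective _ ConjClasses.mk_surjective
    _ ≤ _ := by
        have hc : ∀ (c : (G ⊓ Subgroup.centralizer (S : Set (D ⋊[φ] E)) : Subgroup _)), ∀ a ∈ A,
            φ a (e.symm ⟨c.1, c.2.1⟩) = e.symm ⟨c.1, c.2.1⟩ := fun c a ha => by
          apply SemidirectProduct.inl_injective (φ := φ)
          rw [SemidirectProduct.inl_aut, ← he, MulEquiv.apply_symm_apply, map_inv,
            mul_inv_eq_iff_eq_mul]
          exact Subgroup.mem_centralizer_iff.mp c.2.2 _ ⟨a, ha, rfl⟩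
        refine Nat.card_le_card_of_injective (fun c => ⟨e.symm ⟨c.1, c.2.1⟩,
          hc c _ (Subgroup.subset_closure (by simp)), hc c _ (Subgroup.subset_closure (by simp))⟩) ?_
        intro c c' hcc
        have h1 : e.symm ⟨c.1, c.2.1⟩ = e.symm ⟨c'.1, c'.2.1⟩ := congrArg Subtype.val hcc
        have h2 := e.symm.injective h1
        exact Subtype.ext (congrArg (fun x : G => x.1) h2)

end CL.ND
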