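import Cfsg.Agent.BLK.NormNil

set_option autoImplicit false

namespace CL.ND

open Cfsg

universe u

/-- Height zero characters of a block with normal defect group `D` come from `G / D'`. -/
theorem k0 {G : Type u} [Group G] [Finite G] {p : ℕ} [Fact p.Prime] {M : Ideal AlgInt}
    (hM : IsPModular p M) {B : Set (IrrCharacter G)} (hB : IsPBlock M B) (D : Subgroup G)
    [D.Normal] (hD : IsDefectGroup p M B D)
    (h : ∀ (H : Type u) [Group H] [Finite H] (b : Set (IrrCharacter H)) (Q : Subgroup H)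
      [Q.Normal], IsPBlock M b → IsDefectGroup p M b Q → Nat.card b ≤ Nat.card Q) :
    Nat.card {χ : IrrCharacter G // χ ∈ B ∧ blockHeight p B (χ : G → ℂ) = 0} ≤
      (commutator ↥D).index := by
  classical
  have hp := hM.1
  have hDp : IsPGroup p D := hD.isPGroup
  set f := QuotientGroup.mk' ⁅D, D⁆ with hf'
  have hf : Function.Surjective f := QuotientGroup.mk'_surjective _
  have hk : f.ker = ⁅D, D⁆ := QuotientGroup.ker_mk' _
  have hkD : f.ker ≤ D := by rw [hk]; exact Subgroup.commutator_le_left D D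
  have hkp : IsPGroup p f.ker := hDp.to_le hkD
  have : (D.map f).Normal := Subgroup.Normal.map inferInstance f hf
  have hb : IsPBlock M (CL.Char.irrInfl f hf ⁻¹' B) :=
    CL.Blk.isPBlock_infl_of_sameBlock hM hf hkp (fun χ ψ hs =>
      CL.Blk.sameBlock_of_infl_of_commute hM hf hkp (hDp.map f) (fun x hr hx u hu =>
        CL.Blk.mem_centralizer_of_commutator_mem hp hDp hr (fun v hv => by
          rw [← hk, MonoidHom.mem_ker, map_commutatorElement,
            commutatorElement_eq_one_iff_mul_comm]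
          exact hx _ ⟨v, hv, rfl⟩) u (hkD hu)) hs) hB
  have hDb := (CL.Blk.isDefectGroup_infl_iff hM hf hkp hB hb).2 ⟨D, hD, rfl⟩
  have h1 := h _ _ _ hb hDb
  have hmap : (commutator ↥D).map D.subtype = ⁅D, D⁆ := by
    rw [commutator_def, Subgroup.map_commutator, ← MonoidHom.range_eq_map, Subgroup.range_subtype]
  have hsub : f.ker.subgroupOf D = commutator ↥D := by
    rw [hk, ← hmap]
    exact Subgroup.comap_map_eq_self_of_injective D.subtype_injective _
  have h2 : Nat.card (D.map f) = (commutator ↥D).index := by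
    rw [← Subgroup.relIndex_ker, Subgroup.relIndex, hsub]
  rw [← h2]
  refine le_trans ?_ h1
  have key : ∀ χ : {χ : IrrCharacter G // χ ∈ B ∧ blockHeight p B (χ : G → ℂ) = 0},
      χ.1 ∈ Set.range (CL.Char.irrInfl f hf) := by
    rintro ⟨χ, hχ, h0⟩
    have := Fintype.ofFinite D
    obtain ⟨ζ, hζ, hne⟩ := χ.2.exists_under_res D
    have hz1 : ζ 1 = 1 := CL.Blk.degree_eq_one_of_isPGroup hp hDp (ζ := ⟨ζ, hζ⟩) (by
      rw [← CL.Blk.blockHeight_eq_of_normal hM hB hD hχ (ζ := ⟨ζ, hζ⟩) hne, h0])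
    have hcl := CL.Char.clifford χ.2 hζ hne
    rw [CL.Char.mem_range_irrInfl]
    intro n hn
    have hnD : n ∈ D := hkD hn
    have hnc : (⟨n, hnD⟩ : D) ∈ commutator ↥D := by
      rw [← hsub]; exact hn
    have e1 := congrFun hcl ⟨n, hnD⟩
    have e2 := congrFun hcl 1
    simp only [Pi.smul_apply, Finset.sum_apply, OneMemClass.coe_one] at e1 e2
    rw [e1, e2]
    congr 1
    refine Finset.sum_congr rfl fun φ hφ => ?_
    have hφi := CL.Char.irr_of_mem_conjugates hζ hφ
    have hφ1 : φ 1 = 1 := by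
      obtain ⟨g, rfl⟩ := CL.Char.mem_conjugates.mp hφ
      rw [CL.Char.conjN_apply_one, hz1]
    rw [hφ1]
    exact hφi.isCharacter.eq_one_of_mem_commutator hφ1 hnc
  choose ψ hψ using key
  refine Nat.card_le_card_of_injective
    (fun χ => (⟨ψ χ, by rw [Set.mem_preimage, hψ]; exact χ.2.1⟩ : (CL.Char.irrInfl f hf ⁻¹' B : Set _)))
    fun a b hab => Subtype.ext ?_
  rw [← hψ a, ← hψ b]
  exact congrArg _ (congrArg Subtype.val hab)

end CL.ND
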