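import Cfsg.Agent.S4954
import Cfsg.Agent.S4207
import Cfsg.Agent.PLOC.PFrattini

set_option autoImplicit false

namespace CL.ND

open Cfsg

universe u

theorem pairs_elem (p : ℕ) [hp : Fact p.Prime] {V E : Type u} [Group V] [Finite V] [Group E]
    [Finite E] (hc : ∀ a b : V, a * b = b * a) (hV : ∀ v : V, v ^ p = 1)
    (hE : ¬ p ∣ Nat.card E) (φ : E →* MulAut V) (hφ : Function.Injective φ) :
    Nat.card {x : V × E × E // x.2.1 * x.2.2 = x.2.2 * x.2.1 ∧ φ x.2.1 x.1 = x.1 ∧
      φ x.2.2 x.1 = x.1} ≤ Nat.card V * Nat.card E := by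
  classical
  haveI : Finite (V ⋊[φ] E) := Finite.of_equiv _ SemidirectProduct.equivProd.symm
  let W : Subgroup (V ⋊[φ] E) := (SemidirectProduct.rightHom : V ⋊[φ] E →* E).ker
  have hW : ∀ x : V ⋊[φ] E, x ∈ W ↔ x.right = 1 := fun x => Iff.rfl
  have hWc : Nat.card W = Nat.card V := by
    have : W = (SemidirectProduct.inl : V →* V ⋊[φ] E).range :=
      SemidirectProduct.range_inl_eq_ker_rightHom.symm
    rw [this]
    exact (Nat.card_congr (MonoidHom.ofInjective SemidirectProduct.inl_injective).toEquiv).symm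
  have hk : Nat.card (ConjClasses (V ⋊[φ] E)) ≤ Nat.card V := by
    rw [← hWc]
    refine Cfsg.Agent.S4954.result p W ?_ ?_ ?_
    · intro x hx
      have : x = SemidirectProduct.inl x.left := by
        ext
        · simp
        · simpa using (hW x).1 hx
      rw [this, ← map_pow, hV, map_one]
    · have : W.index = Nat.card E := by
        rw [Subgroup.index_ker, MonoidHom.range_eq_top.2 SemidirectProduct.rightHom_surjective,
          Subgroup.card_top]
      rwa [this]
    · ext x
      rw [Subgroup.mem_centralizer_iff]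
      constructor
      · intro h
        rw [hW]
        apply hφ
        rw [map_one]
        ext v
        have := congrArg SemidirectProduct.left (h (SemidirectProduct.inl v) ((hW _).2 (by simp)))
        simp only [SemidirectProduct.mul_left, SemidirectProduct.left_inl,
          SemidirectProduct.right_inl, map_one, MulAut.one_apply] at this
        rw [hc v] at this
        simpa using (mul_left_cancel this).symm
      · intro hx y hy
        have h1 := (hW x).1 hx
        have h2 := (hW y).1 hy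
        ext
        · simp [h1, h2, hc]
        · simp [h1, h2]
  let S := {x : V × E // φ x.2 x.1 = x.1}
  letI act : MulAction E S :=
    { smul := fun g x => ⟨(φ g x.1.1, g * x.1.2 * g⁻¹), by
        have := x.2
        simp only [map_mul, map_inv, MulAut.mul_apply, MulAut.inv_apply,
          MulEquiv.symm_apply_apply, this]⟩
      one_smul := fun x => Subtype.ext (by
        change (φ 1 x.1.1, 1 * x.1.2 * 1⁻¹) = x.1
        simp)
      mul_smul := fun g h x => Subtype.ext (by
        change (φ (g * h) x.1.1, g * h * x.1.2 * (g * h)⁻¹) =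
          (φ g (φ h x.1.1), g * (h * x.1.2 * h⁻¹) * g⁻¹)
        simp [mul_assoc]) }
  have hs : ∀ (g : E) (x : S), (g • x).1 = (φ g x.1.1, g * x.1.2 * g⁻¹) := fun _ _ => rfl
  have h1 : Nat.card {x : V × E × E // x.2.1 * x.2.2 = x.2.2 * x.2.1 ∧ φ x.2.1 x.1 = x.1 ∧
      φ x.2.2 x.1 = x.1} ≤ Nat.card (Σ g : E, MulAction.fixedBy S g) := by
    refine Nat.card_le_card_of_injective
      (fun x => ⟨x.1.2.2, ⟨⟨(x.1.1, x.1.2.1), x.2.2.1⟩, Subtype.ext ?_⟩⟩) ?_
    · rw [hs]
      refine Prod.ext x.2.2.2 ?_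
      change x.1.2.2 * x.1.2.1 * x.1.2.2⁻¹ = x.1.2.1
      rw [← x.2.1]; simp
    · intro x y h
      have ha := congrArg Sigma.fst h
      have hb := congrArg (fun z : (Σ g : E, MulAction.fixedBy S g) => z.2.1.1) h
      simp only [Prod.mk.injEq] at ha hb
      exact Subtype.ext (Prod.ext hb.1 (Prod.ext hb.2 ha))
  rw [Nat.card_congr (MulAction.sigmaFixedByEquivOrbitsProdGroup E S), Nat.card_prod] at h1
  refine h1.trans (Nat.mul_le_mul_right _ (le_trans ?_ hk))
  have hpow : ∀ x : S, (⟨x.1.1, x.1.2⟩ : V ⋊[φ] E) ^ Nat.card E =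
      SemidirectProduct.inl (x.1.1 ^ Nat.card E) := by
    intro x
    have hx : (⟨x.1.1, x.1.2⟩ : V ⋊[φ] E) =
        SemidirectProduct.inl x.1.1 * SemidirectProduct.inr x.1.2 := by
      ext <;> simp
    have hcm : Commute (SemidirectProduct.inl x.1.1 : V ⋊[φ] E) (SemidirectProduct.inr x.1.2) := by
      have := x.2
      ext
      · simp [this]
      · simp
    rw [hx, hcm.mul_pow, ← map_pow, ← map_pow, pow_card_eq_one', map_one, mul_one]
  have hinj : ∀ a b : V, a ^ Nat.card E = b ^ Nat.card E → a = b := by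
    intro a b h
    have hcop : (Nat.card E).Coprime p := ((Nat.Prime.coprime_iff_not_dvd hp.out).2 hE).symm
    have h2 : (a * b⁻¹) ^ Nat.card E = 1 := by
      rw [Commute.mul_pow (hc _ _), h, inv_pow, mul_inv_cancel]
    have h3 : orderOf (a * b⁻¹) = 1 :=
      Nat.eq_one_of_dvd_coprimes hcop (orderOf_dvd_of_pow_eq_one h2)
        (orderOf_dvd_of_pow_eq_one (hV _))
    exact mul_inv_eq_one.1 (orderOf_eq_one_iff.1 h3)
  refine Nat.card_le_card_of_injective
    (fun q : MulAction.orbitRel.Quotient E S =>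
      ConjClasses.mk (⟨(Quotient.out q).1.1, (Quotient.out q).1.2⟩ : V ⋊[φ] E)) ?_
  intro q q' h
  obtain ⟨z, hz⟩ := isConj_iff.1 (ConjClasses.mk_eq_mk_iff_isConj.1 h)
  rw [← Quotient.out_eq q, ← Quotient.out_eq q']
  generalize Quotient.out q = x at hz ⊢
  generalize Quotient.out q' = y at hz ⊢
  refine (Quotient.sound (s := MulAction.orbitRel E S) ⟨z.right, Subtype.ext ?_⟩).symm
  change (z.right • x).1 = y.1
  rw [hs]
  refine Prod.ext ?_ ?_
  · apply hinj
    have h4 := congrArg (· ^ Nat.card E) hz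
    simp only [conj_pow, hpow] at h4
    have h5 := congrArg SemidirectProduct.left h4
    simp only [SemidirectProduct.mul_left, SemidirectProduct.left_inl, SemidirectProduct.mul_right,
      SemidirectProduct.right_inl, mul_one, SemidirectProduct.inv_left] at h5
    rw [← MulAut.mul_apply, ← map_mul, mul_inv_cancel, map_one, MulAut.one_apply, hc z.left,
      mul_inv_cancel_right, map_pow] at h5
    exact h5
  · simpa using congrArg SemidirectProduct.right hz

/-- `k(GV)` in commuting-pair form for a `p`-group `D` (pass to `D / Φ(D)`). -/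
theorem pairs (p : ℕ) [Fact p.Prime] {D E : Type u} [Group D] [Finite D] [Group E] [Finite E]
    (hD : IsPGroup p D) (hE : ¬ p ∣ Nat.card E) (φ : E →* MulAut D)
    (hφ : Function.Injective φ) :
    Nat.card {x : D × E × E // x.2.1 * x.2.2 = x.2.2 * x.2.1 ∧ φ x.2.1 x.1 = x.1 ∧
      φ x.2.2 x.1 = x.1} ≤ Nat.card D * Nat.card E := by
  classical
  have hm : ∀ e : E, (frattini D).map (φ e : D →* D) = frattini D := fun e =>
    (Subgroup.characteristic_iff_map_eq.1 inferInstance) (φ e)
  let ψ : E →* MulAut (D ⧸ frattini D) := MonoidHom.mk'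
    (fun e => QuotientGroup.congr (frattini D) (frattini D) (φ e) (hm e)) (by
      intro a b
      ext x
      obtain ⟨x, rfl⟩ := QuotientGroup.mk_surjective x
      simp [QuotientGroup.congr_mk])
  have hψ : ∀ e (d : D), ψ e (d : D ⧸ frattini D) = (φ e d : D) := fun e d => rfl
  have hinj : Function.Injective ψ := by
    rw [injective_iff_map_eq_one]
    intro e he
    obtain ⟨n, hn⟩ := IsPGroup.iff_card.1 hD
    obtain ⟨r, hr⟩ := hD.index (frattini D)
    have h1 := Cfsg.Agent.S4207.result hn hr (ψ.ker.map φ) (by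
      rintro _ ⟨g, hg, rfl⟩ x
      rw [← QuotientGroup.eq_one_iff, QuotientGroup.mk_mul, ← hψ, MonoidHom.mem_ker.1 hg]
      simp)
    have h2 : Nat.card (ψ.ker.map φ) ∣ Nat.card E :=
      (Subgroup.card_map_dvd _ _).trans (Subgroup.card_subgroup_dvd_card _)
    have h3 : Nat.card (ψ.ker.map φ) = 1 :=
      Nat.eq_one_of_dvd_coprimes (Nat.Coprime.pow_left _
        ((Nat.Prime.coprime_iff_not_dvd Fact.out).2 hE)) h1 h2
    have h4 : φ e ∈ ψ.ker.map φ := ⟨e, he, rfl⟩
    rw [Subgroup.card_eq_one.1 h3, Subgroup.mem_bot] at h4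
    exact hφ (by rw [h4, map_one])
  have key := pairs_elem p (V := D ⧸ frattini D) (by
      intro a b
      obtain ⟨a, rfl⟩ := QuotientGroup.mk_surjective a
      obtain ⟨b, rfl⟩ := QuotientGroup.mk_surjective b
      have := (QuotientGroup.eq_one_iff _).2 (CL.PG.commutatorElement_mem_frattini hD a b)
      rw [← commutatorElement_eq_one_iff_mul_comm]
      exact this)
    (by
      intro a
      obtain ⟨a, rfl⟩ := QuotientGroup.mk_surjective a
      exact (QuotientGroup.eq_one_iff _).2 (CL.PG.pow_mem_frattini hD a)) hE ψ hinj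
  have h1 : Nat.card {x : D × E × E // x.2.1 * x.2.2 = x.2.2 * x.2.1 ∧ φ x.2.1 x.1 = x.1 ∧
      φ x.2.2 x.1 = x.1} ≤ Nat.card ({x : (D ⧸ frattini D) × E × E //
        x.2.1 * x.2.2 = x.2.2 * x.2.1 ∧ ψ x.2.1 x.1 = x.1 ∧ ψ x.2.2 x.1 = x.1} × frattini D) := by
    refine Nat.card_le_card_of_injective
      (fun x => (⟨((x.1.1 : D ⧸ frattini D), x.1.2), x.2.1, by rw [hψ, x.2.2.1],
        by rw [hψ, x.2.2.2]⟩, (Subgroup.groupEquivQuotientProdSubgroup x.1.1).2)) ?_
    intro x y h
    simp only [Prod.mk.injEq, Subtype.mk.injEq] at h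
    refine Subtype.ext (Prod.ext ?_ h.1.2)
    exact (Subgroup.groupEquivQuotientProdSubgroup (s := frattini D)).injective
      (Prod.ext h.1.1 h.2)
  rw [Nat.card_prod] at h1
  refine h1.trans ((Nat.mul_le_mul_right _ key).trans (le_of_eq ?_))
  rw [Subgroup.card_eq_card_quotient_mul_card_subgroup (frattini D)]
  ring

end CL.ND
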