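import Cfsg.Agent.BLK.NormDef
import Mathlib.GroupTheory.SchurZassenhaus

set_option autoImplicit false

namespace CL.ND

open Cfsg Subgroup CL.Char CL.Blk

universe u

theorem exists_pi {G : Type u} [Group G] [Finite G] (p : ℕ) [hp : Fact p.Prime] (D T : Subgroup G)
    [hn : D.Normal] (hD : IsPGroup p D) (hHT : D ⊔ centralizer (D : Set G) ≤ T)
    (hi : ¬ p ∣ (D ⊔ centralizer (D : Set G)).relIndex T) :
    ∃ (E : Type u) (_ : Group E) (_ : Finite E) (π : T →* E) (φ : E →* MulAut D),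
      Function.Surjective π ∧ (∀ t : T, π t = 1 ↔ (t : G) ∈ D ⊔ centralizer (D : Set G)) ∧
      ¬ p ∣ Nat.card E ∧ Function.Injective φ ∧
      ∀ t : T, ∃ d : D, ∀ y : D, (φ (π t) y : G) = t * (d * y * d⁻¹ : D) * (t : G)⁻¹ := by
  classical
  set H := D ⊔ centralizer (D : Set G) with hH
  let c : T →* MulAut D := (MulAut.conjNormal (H := D)).comp T.subtype
  let r := c.rangeRestrict
  have hr : Function.Surjective r := c.rangeRestrict_surjective
  have hDT : D ≤ T := le_sup_left.trans hHT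
  have hrv : ∀ (t : T) (y : D), (((r t : c.range) : MulAut D) y : G) = t * y * (t : G)⁻¹ :=
    fun t y => rfl
  have hker : ∀ t : T, r t = 1 ↔ (t : G) ∈ centralizer (D : Set G) := fun t => by
    constructor
    · intro h y hy
      have := hrv t ⟨y, hy⟩
      rw [h] at this
      have e : y = t * y * (t : G)⁻¹ := this
      rw [eq_mul_inv_iff_mul_eq] at e
      exact e
    · intro h
      refine Subtype.ext (MulEquiv.ext fun y => Subtype.ext ?_)
      rw [hrv, ← h y y.2, mul_inv_cancel_right]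
      rfl
  let I : Subgroup c.range := (D.subgroupOf T).map r
  have hIn : I.Normal := Normal.map inferInstance r hr
  have hIp : IsPGroup p I := (hD.comap_subtype (K := T)).map r
  have hmem : ∀ t : T, r t ∈ I ↔ (t : G) ∈ H := fun t => by
    constructor
    · rintro ⟨d, hd, e⟩
      have h1 : r (d⁻¹ * t) = 1 := by rw [map_mul, map_inv, e, inv_mul_cancel]
      have h2 := (hker _).1 h1
      have h3 : (t : G) = d * (d⁻¹ * t : T) := by simp
      rw [h3]
      exact mul_mem (le_sup_left (a := D) hd) (le_sup_right (a := D) h2)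
    · intro h
      have h' : (t : G) ∈ (H : Set G) := h
      rw [hH, normal_mul] at h'
      obtain ⟨d, hd, z, hz, e⟩ := h'
      refine ⟨⟨d, hDT hd⟩, hd, ?_⟩
      have h1 : r ⟨z, hHT (le_sup_right (a := D) hz)⟩ = 1 := (hker _).2 hz
      have h2 : t = ⟨d, hDT hd⟩ * ⟨z, hHT (le_sup_right (a := D) hz)⟩ := Subtype.ext e.symm
      rw [h2, map_mul, h1, mul_one]
  have hcomap : I.comap r = H.subgroupOf T := Subgroup.ext hmem
  have hidx : I.index = H.relIndex T := by
    rw [← index_comap_of_surjective I hr, hcomap]; rfl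
  obtain ⟨k, hk⟩ := IsPGroup.iff_card.1 hIp
  have hcop : (Nat.card I).Coprime I.index := by
    rw [hk, hidx]
    exact Nat.Coprime.pow_left _ ((Nat.Prime.coprime_iff_not_dvd hp.out).2 hi)
  obtain ⟨K, hK⟩ := exists_left_complement'_of_coprime hcop
  let ε := hK.QuotientMulEquiv
  have hε : ∀ x : K, ε.symm x = ((x : c.range) : c.range ⧸ I) := fun x => rfl
  refine ⟨K, inferInstance, inferInstance, (ε.toMonoidHom.comp (QuotientGroup.mk' I)).comp r,
    c.range.subtype.comp K.subtype, (ε.surjective.comp (QuotientGroup.mk'_surjective I)).comp hr,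
    fun t => ?_, ?_, c.range.subtype_injective.comp K.subtype_injective, fun t => ?_⟩
  · rw [← hmem, ← QuotientGroup.eq_one_iff]
    exact ε.map_eq_one_iff
  · rw [← Nat.card_congr ε.toEquiv, ← index_eq_card, hidx]
    exact hi
  · have h1 := hε (ε (r t : c.range ⧸ I))
    rw [ε.symm_apply_apply] at h1
    obtain ⟨d, hd, e⟩ := QuotientGroup.eq.1 h1
    refine ⟨⟨d, hd⟩, fun y => ?_⟩
    have h2 : ((ε (r t : c.range ⧸ I) : K) : c.range) = r (t * d) := by
      rw [map_mul, e, mul_inv_cancel_left]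
    show ((((ε (r t : c.range ⧸ I) : K) : c.range) : MulAut D) y : G) = _
    rw [h2, hrv]
    simp [mul_assoc]

theorem exists_zeta {G : Type u} [Group G] [Finite G] {p : ℕ} {M : Ideal AlgInt}
    (hM : IsPModular p M) {D H : Subgroup G} (hDH : D ≤ H) (hH : H ≤ D ⊔ centralizer (D : Set G))
    {b : Set (IrrCharacter H)} (hb : IsPBlock M b) (hd : IsDefectGroup p M b (D.subgroupOf H)) :
    ∃ (n : ℂ) (Z : b → IrrCharacter D), n ≠ 0 ∧ Function.Injective Z ∧
      ∀ (θ : b) (y : D), θ.1.1 ⟨y, hDH y.2⟩ = (Z θ).1 y * n := by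
  have hG := subgroupOf_sup_centralizer_eq_top hDH hH
  have := normal_of_sup_centralizer hG
  obtain ⟨χ, hχ, hk⟩ := exists_mem_block_ker hM hb (D.subgroupOf H) hd.isPGroup
  have h1 : ¬ p ∣ orderOf (1 : H) := by rw [orderOf_one, Nat.dvd_one]; exact hM.1.ne_one
  have key : ∀ θ : b, ∃ ζ : IrrCharacter D, ∀ (y : D.subgroupOf H) (s : H), ¬ p ∣ orderOf s →
      θ.1.1 (y * s) = subOf D H ζ.1 y * χ.1 s := fun θ => by
    obtain ⟨ζ', h⟩ := exists_irr_of_mem_of_sup hM hG hb hd hχ hk θ.2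
    obtain ⟨ζ'', e⟩ := subOf_surjective hDH (ζ' : D.subgroupOf H → ℂ)
    exact ⟨⟨ζ'', (isIrrCharacter_subOf_iff hDH).1 (e ▸ ζ'.2)⟩, fun y s hs => by
      rw [h y s hs]; exact congrArg (· * χ.1 s) (congrFun e y).symm⟩
  choose Z hZ using key
  refine ⟨χ.1 1, Z, ?_, fun θ θ' e => ?_, fun θ y => ?_⟩
  · rw [irr_one_eq]; exact Nat.cast_ne_zero.2 (charDegree_ne_zero χ)
  · refine Subtype.ext (Subtype.ext (eq_of_forall_pairs (D := D.subgroupOf H) hM.1
      (fun g y hy h => irr_eq_zero_of_notMem_normal hM hb hd θ.2 hy h)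
      (fun g y hy h => irr_eq_zero_of_notMem_normal hM hb hd θ'.2 hy h) fun y s hs _ => ?_))
    rw [hZ θ y s hs, hZ θ' y s hs, e]
  · have := hZ θ ⟨⟨y, hDH y.2⟩, y.2⟩ 1 h1
    rwa [mul_one] at this

end CL.ND
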